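import Cfsg.Agent.H520.CcpCfg
import Cfsg.Agent.H628.ZOutPSp
import Cfsg.Agent.H206.PspBal
import Cfsg.Agent.H208.LSidePSp
import Cfsg.Agent.ClassicalGeometry.SympInvolutions
import Cfsg.Agent.S2586
import Cfsg.Agent.S2589
import Cfsg.Agent.S0765
import Cfsg.Prelude.Def_LieTypeChar

/-!
# S4114, the elliptic row of the symplectic groups (helper326, for helper520)

* `out_split` : an automorphism of odd prime order of `PSp m F` is inner or conjugate to a standard field automorphism;
* `real_psp` : elements of odd prime order `p ≠ r` of `PSp m F` are conjugate to their inverses;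
* `el_psp` : `ElRow r G` for `G ≅ PSp_{2m}(F)`, `char F = r`.
-/

set_option autoImplicit false
set_option linter.unusedSectionVars false

namespace Cfsg.Agent.H326.Ccp

open Subgroup Cfsg Cfsg.Agent.H520 Cfsg.Agent.H966
open Cfsg.Agent.ClassicalGeometry.SympBasic
open Cfsg.Agent.ClassicalGeometry.SympAutSemi Cfsg.Agent.ClassicalGeometry.SympGamma
open Cfsg.Agent.H206.PspBal

universe u v

/-! ### Reality -/

theorem center_sq {F : Type*} [Field F] {m : ℕ} {z : Matrix.symplecticGroup (Fin m) F}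
    (hz : z ∈ Subgroup.center (Matrix.symplecticGroup (Fin m) F)) : z ^ 2 = 1 := by
  apply Subtype.ext
  rcases Cfsg.Agent.ClassicalGeometry.SympInvolutions.center_eq hz with h | h
  · rw [pow_two, Submonoid.coe_mul, h, one_mul]
    rfl
  · rw [pow_two, Submonoid.coe_mul, h, neg_mul_neg, one_mul]
    rfl

/-- Elements of odd prime order of `PSp_{2m}(q)`, prime to the characteristic, are real. -/
theorem real_psp {F : Type*} [Field F] [Fintype F] {r : ℕ} [Fact r.Prime] [CharP F r]
    {m : ℕ} {p : ℕ} (hp : p.Prime) (hp2 : p ≠ 2) (hpr : p ≠ r) (y : PSp m F)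
    (hy : orderOf y = p) : ∃ g : PSp m F, g * y * g⁻¹ = y⁻¹ := by
  obtain ⟨x₀, rfl⟩ := QuotientGroup.mk_surjective y
  set π : Matrix.symplecticGroup (Fin m) F →* PSp m F := QuotientGroup.mk' _ with hπ
  have hodd : Odd p := hp.odd_of_ne_two hp2
  obtain ⟨k, hk⟩ := hodd
  have hx0 : π x₀ ^ p = 1 := by
    rw [← hy]
    exact pow_orderOf_eq_one _
  have hz : x₀ ^ p ∈ Subgroup.center (Matrix.symplecticGroup (Fin m) F) := by
    rw [← QuotientGroup.ker_mk' (Subgroup.center (Matrix.symplecticGroup (Fin m) F)),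
      MonoidHom.mem_ker, map_pow]
    exact hx0
  have hx1 : (x₀ ^ (p + 1)) ^ p = 1 := by
    have h1 : p + 1 = 2 * (k + 1) := by omega
    rw [← pow_mul, mul_comm, pow_mul, h1, pow_mul, center_sq hz, one_pow]
  have hπx : π (x₀ ^ (p + 1)) = QuotientGroup.mk x₀ := by
    rw [map_pow, pow_succ, hx0, one_mul]
    rfl
  have hord : (orderOf (x₀ ^ (p + 1))).Coprime r := by
    refine Nat.Coprime.coprime_dvd_left (orderOf_dvd_of_pow_eq_one hx1) ?_
    exact (Nat.coprime_primes hp (Fact.out : r.Prime)).mpr hpr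
  have hconj := (Cfsg.Agent.S2589.result (x₀ ^ (p + 1)) (x₀ ^ (p + 1))⁻¹ hord).mpr
    (Cfsg.Agent.S2586.result (x₀ ^ (p + 1)))
  obtain ⟨g, hg⟩ := isConj_iff.mp hconj
  refine ⟨π g, ?_⟩
  have h2 := congrArg π hg
  rw [map_mul, map_mul, map_inv, map_inv, hπx] at h2
  exact h2

/-! ### Outer automorphisms -/

variable {F : Type u} [Field F] {m p : ℕ}

/-- automorphisms in the range of `Psi` -/
theorem split_range [Finite F] (hm : 2 ≤ m) (hp : p.Prime) (hp2 : p ≠ 2) {X : MulAut (PSp m F)}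
    (hX : orderOf X = p) (hr : X ∈ (Psi m F).range) : (∃ g, X = MulAut.conj g) ∨
      ∃ (σ : F ≃+* F) (β : MulAut (PSp m F)),
        X = β * Psi m F ⟨frobPerm m σ, σ, 1, one_ne_zero, isSemi_frobPerm σ⟩ * β⁻¹ := by
  have := Fintype.ofFinite F
  obtain ⟨⟨h, σ, e, he, hh⟩, rfl⟩ := hr
  by_cases hσ : σ = RingEquiv.refl F
  · subst hσ
    left
    refine Cfsg.Agent.H628.ZOutBasic.inner_of_pow (k := 2 ^ 1) hX (Cfsg.Agent.H628.ZOutBasic.coprime_two_pow hp hp2 1) ?_
    rw [pow_one]
    exact Cfsg.Agent.H628.ZOutPSp.sq_inner he hh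
  · right
    -- the linear part
    have hfr : frobPerm m σ ∈ semiSim m F := ⟨σ, 1, one_ne_zero, isSemi_frobPerm σ⟩
    have h1 := hh.mul ((isSemi_frobPerm (m := m) σ).inv one_ne_zero)
    have h2 : σ.symm.trans σ = RingEquiv.refl F := by ext a; simp
    rw [h2] at h1
    have hδ : Psi m F ⟨h, σ, e, he, hh⟩ * (Psi m F ⟨frobPerm m σ, hfr⟩)⁻¹ ∈ inndiagPSp m F := by
      rw [← map_inv, ← map_mul]
      refine PSpAut.mem_inndiag.2 ⟨_, ?_, rfl⟩
      refine ⟨_, ?_, h1⟩
      simpa using he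
    have h3 : Psi m F ⟨h, σ, e, he, hh⟩ * (Psi m F ⟨frobPerm m σ, hfr⟩)⁻¹ * Psi m F ⟨frobPerm m σ, hfr⟩ =
        Psi m F ⟨h, σ, e, he, hh⟩ := inv_mul_cancel_right _ _
    obtain ⟨β, -, hβ⟩ := S2713.std hm hσ hp rfl hδ (by
      rw [h3, ← hX, pow_orderOf_eq_one])
    rw [h3] at hβ
    exact ⟨σ, β, hβ⟩

/-- **Automorphisms of odd prime order of `PSp_{2m}(F)`** are inner or conjugate to standard field automorphisms. -/
theorem out_split [Finite F] (hm : 2 ≤ m) (hs : m = 2 → 3 ≤ Nat.card F) (hp : p.Prime) (hp2 : p ≠ 2)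
    {X : MulAut (PSp m F)} (hX : orderOf X = p) : (∃ g, X = MulAut.conj g) ∨
      ∃ (σ : F ≃+* F) (β : MulAut (PSp m F)),
        X = β * Psi m F ⟨frobPerm m σ, σ, 1, one_ne_zero, isSemi_frobPerm σ⟩ * β⁻¹ := by
  refine split_range hm hp hp2 hX ?_
  by_cases h : 3 ≤ m ∨ (2 : F) ≠ 0
  · obtain ⟨g, rfl⟩ := ClassicalGeometry.SympAutExists.exists_semi hm X
      (ClassicalGeometry.SympAutOddA.recog hm h X)
    exact ⟨g, rfl⟩
  · push Not at h
    obtain ⟨h3, h2⟩ := h
    have hm2 : m = 2 := by omega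
    subst hm2
    have hchar : CharP F 2 := CharTwo.of_one_ne_zero_of_two_eq_zero one_ne_zero h2
    have ht : ∃ t : F, t ≠ 0 ∧ t ≠ 1 := by
      by_contra hc
      push Not at hc
      have h4 : (Set.univ : Set F) ⊆ {0, 1} := by
        intro t _
        by_cases h0 : t = 0
        · exact Or.inl h0
        · exact Or.inr (hc t h0)
      have h5 := Set.ncard_le_ncard h4 (Set.toFinite _)
      rw [Set.ncard_univ] at h5
      have h6 := Set.ncard_insert_le (0 : F) {1}
      rw [Set.ncard_singleton] at h6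
      have h7 := hs rfl
      omega
    have h4 := ClassicalGeometry.SympAutTwo.index_two (F := F) ht (fun α hα => by
      obtain ⟨g, hg⟩ := ClassicalGeometry.SympAutExists.exists_semi le_rfl α hα
      exact ⟨g, hg⟩)
    have h5 : X ^ 2 ∈ (Psi 2 F).range := by
      rw [pow_two]
      exact Subgroup.mul_self_mem_of_index_two h4 X
    obtain ⟨k, hk⟩ := exists_pow_eq_self_of_coprime (n := 2) (x := X) (by
      rw [hX]; simpa using Cfsg.Agent.H628.ZOutBasic.coprime_two_pow hp hp2 1)
    rw [← hk]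
    exact Subgroup.pow_mem _ h5 k

/-- Powers of a transvection. -/
theorem transv_pow {F₀ : Type v} [Field F₀] {m : ℕ} (v : Fin m ⊕ Fin m → F₀) (c : F₀) (n : ℕ) :
    transv v c ^ n = transv v (n * c) := by
  induction n with
  | zero =>
    rw [pow_zero, Nat.cast_zero, zero_mul]
    exact Subtype.ext (sympTransvection_zero v).symm
  | succ n ih =>
    rw [pow_succ, ih]
    apply Subtype.ext
    change sympTransvection m v (n * c) * sympTransvection m v c = _
    rw [sympTransvection_mul]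
    change _ = sympTransvection m v (((n + 1 : ℕ) : F₀) * c)
    congr 1
    push_cast
    ring

/-- the order is even -/
theorem two_dvd_card {F₀ : Type v} [Field F₀] {m : ℕ} [Finite (PSp m F₀)] (hm : 1 ≤ m) :
    2 ∣ Nat.card (PSp m F₀) := by
  have h1 : orderOf (QuotientGroup.mk (SymplecticGroup.symJ (Fin m) F₀) : PSp m F₀) = 2 := by
    refine orderOf_eq_prime ?_ ?_
    · rw [← QuotientGroup.mk_pow, QuotientGroup.eq_one_iff, mem_center_iff]
      intro g
      apply Subtype.ext
      have h2 : ((SymplecticGroup.symJ (Fin m) F₀ ^ 2 : Matrix.symplecticGroup (Fin m) F₀) :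
          Matrix (Fin m ⊕ Fin m) (Fin m ⊕ Fin m) F₀) = -1 := by
        rw [pow_two, Submonoid.coe_mul]
        show Matrix.J (Fin m) F₀ * Matrix.J (Fin m) F₀ = _
        rw [Matrix.J_squared]
      rw [Submonoid.coe_mul, Submonoid.coe_mul, h2, mul_neg, neg_mul, mul_one, one_mul]
    · rw [Ne, QuotientGroup.eq_one_iff]
      intro h
      rcases Cfsg.Agent.ClassicalGeometry.SympInvolutions.center_eq h with h1 | h1
      · have h1' : Matrix.J (Fin m) F₀ = 1 := h1
        have h2 := congrFun (congrFun h1' (Sum.inr ⟨0, hm⟩)) (Sum.inl ⟨0, hm⟩)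
        simp [Matrix.J] at h2
      · have h1' : Matrix.J (Fin m) F₀ = -1 := h1
        have h2 := congrFun (congrFun h1' (Sum.inr ⟨0, hm⟩)) (Sum.inl ⟨0, hm⟩)
        simp [Matrix.J] at h2
  rw [← h1]
  exact orderOf_dvd_natCard _

/-- the group `Sp_{2m}(F₀)` is generated by its `r`-elements -/
theorem closure_relem {F₀ : Type v} [Field F₀] {r : ℕ} [CharP F₀ r] (m : ℕ) :
    closure {l : Matrix.symplecticGroup (Fin m) F₀ | ∃ k : ℕ, l ^ r ^ k = 1} = ⊤ := by
  have hgen : transvGroup m F₀ = ⊤ := Cfsg.Agent.S0765.result m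
  rw [eq_top_iff, ← hgen]
  unfold transvGroup
  rw [closure_le]
  rintro A ⟨v, c, hA⟩
  have hA' : A = transv v c := Subtype.ext hA
  subst hA'
  apply Subgroup.subset_closure
  refine ⟨1, ?_⟩
  rw [pow_one, transv_pow, CharP.cast_eq_zero, zero_mul]
  exact Subtype.ext (sympTransvection_zero v)

theorem not_solvable_psi {F₀ : Type v} [Field F₀] [Finite F₀] (hm : 2 ≤ m) (j : F₀ →+* F) :
    ¬ Group.IsSolvable (psi m j).range := by
  intro hs
  apply Cfsg.Agent.H208.LSidePSp.not_solvable_sp (F := F₀) (k := m) (by omega) (by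
    have h1 : 2 ≤ Nat.card F₀ := Finite.one_lt_card
    calc 4 = 2 ^ 2 := by norm_num
      _ ≤ 2 ^ m := Nat.pow_le_pow_right (by norm_num) hm
      _ ≤ _ := Nat.pow_le_pow_left h1 m)
  refine Cfsg.Agent.H208.LSidePSp.solvable_of_hom (psi m j).rangeRestrict ?_
  intro x hx y _
  have hx' : x ∈ (psi m j).ker := by
    rwa [MonoidHom.ker_rangeRestrict] at hx
  rw [ker_psi j (by omega)] at hx'
  exact (mem_center_iff.1 hx' y).symm

/-- **The elliptic row of the symplectic groups.** -/
theorem el_psp {r : ℕ} [Fact r.Prime] {G : Type u} [Group G] [Finite G] (h : Cfsg.IsPSpChar r G) : ElRow r G := by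
  obtain ⟨F, iF, iFt, iC, m, hm, hs, ⟨e⟩⟩ := h
  refine ElRow.congr e ?_
  intro α h hE
  have hsim := h.sim
  have h2 : 2 ∣ Nat.card (PSp m F) := two_dvd_card (by omega)
  obtain ⟨p, hp, hp2, hpα⟩ := h.exists_prime_ne Nat.prime_two h2
  obtain ⟨y, hy, hyp⟩ := exists_prime_order hp hpα
  have hy1 : y ≠ 1 := by
    rintro rfl
    rw [orderOf_one] at hyp
    exact hp.one_lt.ne hyp
  rcases out_split hm (by rw [Nat.card_eq_fintype_card]; exact hs) hp hp2 hyp with ⟨g, rfl⟩ | ⟨σ, β, hβ⟩
  · -- inner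
    have hgp : orderOf g = p := by
      rw [← hyp]
      exact (orderOf_injective (MulAut.conj : PSp m F →* MulAut (PSp m F))
        (fun a b hab => conj_inj h.center_bot hab) g).symm
    rcases eq_or_ne p r with rfl | hpr
    · have h1 := hE (zpowers g) (IsPGroup.of_card (n := 1) (by rw [Nat.card_zpowers, pow_one, hgp])) (by
        rintro _ ⟨i, rfl⟩
        refine ⟨i, ?_⟩
        have h3 : α g = g := fix_of_comm h.center_bot (Cfg.comm_zpowers (mem_zpowers α) hy)
        show g ^ i = α (g ^ i)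
        rw [map_zpow, h3])
      rw [zpowers_eq_bot] at h1
      rw [h1, map_one] at hy1
      exact hy1 rfl
    · obtain ⟨k, hk⟩ := real_psp hp hp2 hpr g hgp
      have h1 := h.sq_eq_one_of_real hy hk
      have h3 : p ∣ 2 := hgp ▸ orderOf_dvd_of_pow_eq_one h1
      exact hp2 ((Nat.prime_dvd_prime_iff_eq hp Nat.prime_two).1 h3)
  · -- field type
    let j : (Frob.fix σ) →+* F := (Frob.fix σ).subtype
    have hj : ∀ b, σ (j b) = j b := fun b => b.2
    have hfr : frobPerm m σ ∈ semiSim m F := ⟨σ, 1, one_ne_zero, isSemi_frobPerm σ⟩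
    have hfix : ∀ A, Psi m F ⟨frobPerm m σ, hfr⟩ (psi m j A) = psi m j A := by
      intro A
      have h5 := phi_mk (m := m) σ (mapSp m j A)
      refine h5.trans ?_
      congr 1
      apply Subtype.ext
      ext a b
      exact hj _
    refine h.el_false_hom hE hy hy1 (L := Matrix.symplecticGroup (Fin m) (Frob.fix σ))
      (β.toMonoidHom.comp (psi m j)) ?_ (closure_relem m) ?_
    · intro A
      rw [hβ]
      show β (Psi m F ⟨frobPerm m σ, hfr⟩ (β⁻¹ (β (psi m j A)))) = β (psi m j A)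
      have h4 : β⁻¹ (β (psi m j A)) = psi m j A := β.symm_apply_apply _
      rw [h4, hfix]
    · intro hs
      apply not_solvable_psi hm j
      have h5 : (β.toMonoidHom.comp (psi m j)).range = (psi m j).range.map β.toMonoidHom := MonoidHom.range_comp _ _
      rw [h5] at hs
      exact Group.isSolvable_of_isSolvable_injective
        (f := ((psi m j).range.equivMapOfInjective β.toMonoidHom β.injective).toMonoidHom)
        (((psi m j).range.equivMapOfInjective β.toMonoidHom β.injective).injective)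

end Cfsg.Agent.H326.Ccp
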